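import Cfsg.Agent.OrthGen.Index

/-! The subgroup generated by the reflections of one norm class. -/

set_option autoImplicit false

namespace Cfsg.Agent.OrthGen

open QuadraticMap Module Cfsg.Agent.Classical

universe u v

variable {F : Type u} [Field F] {V : Type v} [AddCommGroup V] [Module F V] [FiniteDimensional F V]
  {Q : QuadraticForm F V}

/-- The subgroup generated by the reflections in vectors of value in the class of `c`. -/
def classSub (Q : QuadraticForm F V) (c : F) : Subgroup (OQ Q) :=
  Subgroup.closure {g | ∃ (x : V) (hx : Q x ≠ 0) (t : F), t ≠ 0 ∧ Q x = c * t ^ 2 ∧ g = reflQ Q x hx}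

variable [Finite F] [Finite V]

omit [FiniteDimensional F V] in
theorem exists_mul_sq_of_iff (h2 : (2 : F) ≠ 0) {x c : F} (hx : x ≠ 0) (hc : c ≠ 0)
    (h : IsSquare x ↔ IsSquare c) : ∃ t : F, t ≠ 0 ∧ x = c * t ^ 2 := by
  obtain ⟨s, hs⟩ := isSquare_mul_iff_same hx hc h
  refine ⟨s / c, div_ne_zero ?_ hc, ?_⟩
  · rintro rfl; rw [mul_zero] at hs; exact mul_ne_zero hx hc hs
  · field_simp; linear_combination hs

theorem refl_pair_of_plane (hB : BNondeg Q) (h2 : (2 : F) ≠ 0) {c : F} (hc : c ≠ 0) {a b : V}
    (ha : Q a ≠ 0) (hb : Q b ≠ 0) (hab : Q a = Q b) (hD : 4 * Q a * Q a - polar Q a b * polar Q a b ≠ 0) :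
    reflQ Q a ha * reflQ Q b hb ∈ classSub Q c := by
  classical
  have hx4 := notExceptional_of_two_ne_zero (Q := Q) h2
  set s := polar Q a b
  set b' := b - (s / (2 * Q a)) • a
  have hab' : polar Q a b' = 0 := by
    simp only [b', polar_sub_right, polar_smul_right, polar_self_two, smul_eq_mul]
    field_simp
    ring
  have hb' : Q b' ≠ 0 := by
    have : Q b' * (4 * Q a) = 4 * Q a * Q a - s * s := by
      simp only [b', qf_sub, QuadraticMap.map_smul, polar_smul_right, polar_comm Q b a, smul_eq_mul, ← hab]
      field_simp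
      ring
    intro h0; rw [h0, zero_mul] at this; exact hD this.symm
  obtain ⟨x, y, hxy⟩ := exists_value_of_orth ha hb' hab' c
  set e := x • a + y • b'
  have he : Q e ≠ 0 := by rw [hxy]; exact hc
  have hli : LinearIndependent F ![a, b] := by
    rw [LinearIndependent.pair_iff]
    intro p q hpq
    have h1 := congrArg (fun z => polar Q a z) hpq
    have h2' := congrArg (fun z => polar Q b z) hpq
    simp only [polar_add_right, polar_smul_right, polar_self_two, polar_zero_right, smul_eq_mul,
      polar_comm Q b a, ← hab] at h1 h2'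
    have hp : p * (4 * Q a * Q a - s * s) = 0 := by linear_combination (2 * Q a) * h1 - s * h2'
    have hq : q * (4 * Q a * Q a - s * s) = 0 := by linear_combination (2 * Q a) * h2' - s * h1
    exact ⟨(mul_eq_zero.1 hp).resolve_right hD, (mul_eq_zero.1 hq).resolve_right hD⟩
  set g := reflQ Q e he * (reflQ Q a ha * reflQ Q b hb)
  have hd : dickson g = -1 := by
    simp only [g]
    rw [dickson_refl_mul hB, dickson_refl_mul hB, dickson_refl hB, neg_neg]
  have hfix : perpSub Q (Submodule.span F (Set.range ![a, b])) ≤ fixSpace g := by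
    intro v hv
    have hav : polar Q a v = 0 := hv a (Submodule.subset_span ⟨0, rfl⟩)
    have hbv : polar Q b v = 0 := hv b (Submodule.subset_span ⟨1, rfl⟩)
    have hev : polar Q e v = 0 := by
      simp only [e, b', polar_add_left, polar_smul_left, polar_sub_left, hav, hbv, smul_zero, sub_zero, add_zero]
    rw [mem_fixSpace]
    simp only [g, Subgroup.coe_mul, LinearEquiv.mul_apply, reflQ_fix Q hb hbv, reflQ_fix Q ha hav,
      reflQ_fix Q he hev]
  have hdim : finrank F (fixSpace g) + 1 = finrank F V := by
    have h1 := Submodule.finrank_mono hfix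
    rw [finrank_orthogonal_polar hB, finrank_span_eq_card hli, Fintype.card_fin] at h1
    have h3 := (fixSpace g).finrank_le
    have hodd : Odd (finrank F (fixSpace g) + finrank F V) := by
      rcases Nat.even_or_odd (finrank F (fixSpace g) + finrank F V) with he' | he'
      · exfalso
        rw [dickson, he'.neg_one_pow] at hd
        exact absurd hd (by decide)
      · exact he'
    rw [Nat.odd_iff] at hodd
    omega
  obtain ⟨w, hw, hgw⟩ := exists_reflQ_of_finrank_fix hB g hdim
  have hls := congrArg (levelSign Q) hgw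
  simp only [g, map_mul] at hls
  rw [levelSign_refl h2 he, levelSign_refl h2 ha, levelSign_refl h2 hb, levelSign_refl h2 hw, ← hab] at hls
  have hsw : IsSquare (Q w) ↔ IsSquare c := by
    rw [← hxy]
    constructor <;> intro h <;> by_contra h' <;>
      · by_cases hsa : IsSquare (Q a) <;> simp_all
  obtain ⟨t, ht, htw⟩ := exists_mul_sq_of_iff h2 hw hc hsw
  have hew : reflQ Q a ha * reflQ Q b hb = reflQ Q e he * reflQ Q w hw := by
    rw [← hgw]; simp only [g]; rw [← mul_assoc, reflQ_mul_self, one_mul]
  rw [hew]
  exact mul_mem (Subgroup.subset_closure ⟨e, he, 1, one_ne_zero, by rw [hxy]; ring, rfl⟩)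
    (Subgroup.subset_closure ⟨w, hw, t, ht, htw, rfl⟩)

theorem sameSub_le_classSub (hB : BNondeg Q) (h2 : (2 : F) ≠ 0)
    (heven : Even (finrank F V))
    (hex : (∃ s : F, s ≠ 0 ∧ s ≠ 1 ∧ s ≠ -1) ∨ finrank F V ≠ 4) {c : F} (hc : c ≠ 0) :
    sameSub Q ≤ classSub Q c := by
  refine (Subgroup.closure_le _).2 ?_
  rintro _ ⟨a, b, ha, hb, hab, rfl⟩
  rw [SetLike.mem_coe]
  by_cases hD : 4 * Q a * Q a - polar Q a b * polar Q a b ≠ 0
  · exact refl_pair_of_plane hB h2 hc ha hb hab hD
  rw [not_not] at hD
  -- normalise to `polar a b = 2 Q a`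
  suffices key : ∀ b (hb : Q b ≠ 0), Q a = Q b → polar Q a b = 2 * Q a →
      reflQ Q a ha * reflQ Q b hb ∈ classSub Q c by
    have : (polar Q a b - 2 * Q a) * (polar Q a b + 2 * Q a) = 0 := by linear_combination -hD
    rcases mul_eq_zero.1 this with h | h
    · exact key b hb hab (sub_eq_zero.1 h)
    · have hb' : Q (-b) ≠ 0 := by rwa [QuadraticMap.map_neg]
      have := key (-b) hb' (by rw [QuadraticMap.map_neg]; exact hab)
        (by rw [polar_neg_right]; linear_combination -h)
      rwa [reflQ_neg Q hb hb'] at this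
  intro b hb hab hf
  set z := b - a
  have hz : Q z = 0 := by simp only [z, qf_sub, polar_comm Q b a, hf, ← hab]; ring
  have haz : polar Q a z = 0 := by simp only [z, polar_sub_right, polar_self_two, hf, sub_self]
  by_cases hz0 : z = 0
  · rw [reflQ_congr Q (sub_eq_zero.1 hz0) hb ha, reflQ_mul_self]
    exact one_mem _
  obtain ⟨w, hw⟩ := exists_polar_one hB.qNondeg hz0 hz
  have hzz : polar Q z z = 0 := by rw [polar_self_two, hz, mul_zero]
  set y := w - (polar Q a w / (2 * Q a)) • a
  have hay : polar Q a y = 0 := by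
    simp only [y, polar_sub_right, polar_smul_right, polar_self_two, smul_eq_mul]; field_simp; ring
  have hzy : polar Q z y = 1 := by
    simp only [y, polar_sub_right, polar_smul_right, polar_comm Q z a, haz, hw, smul_zero, sub_zero]
  set y' := y - Q y • z
  have hy' : Q y' = 0 := by
    simp only [y', qf_sub, QuadraticMap.map_smul, polar_smul_right, hz, polar_comm Q y z, hzy, smul_eq_mul]; ring
  have hay' : polar Q a y' = 0 := by
    simp only [y', polar_sub_right, polar_smul_right, hay, haz, smul_zero, sub_zero]
  have hzy' : polar Q z y' = 1 := by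
    simp only [y', polar_sub_right, polar_smul_right, hzy, hzz, smul_zero, sub_zero]
  -- a vector joined to both
  suffices ∃ x, Q x = Q a ∧ polar Q a x = 0 ∧ polar Q z x ≠ 2 * Q a ∧ polar Q z x ≠ -(2 * Q a) by
    obtain ⟨x, hx, hax, h1, h1'⟩ := this
    have hx0 : Q x ≠ 0 := by rw [hx]; exact ha
    have e : reflQ Q a ha * reflQ Q b hb
        = (reflQ Q a ha * reflQ Q x hx0) * (reflQ Q x hx0 * reflQ Q b hb) := by
      rw [mul_assoc, ← mul_assoc (reflQ Q x hx0), reflQ_mul_self, one_mul]
    rw [e]
    refine mul_mem (refl_pair_of_plane hB h2 hc ha hx0 hx.symm ?_)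
      (refl_pair_of_plane hB h2 hc hx0 hb (hx.trans hab) ?_)
    · rw [hax, mul_zero, sub_zero]
      exact mul_ne_zero (mul_ne_zero (by rw [show (4 : F) = 2 * 2 by norm_num]; exact mul_ne_zero h2 h2) ha) ha
    · have hxb : polar Q x b = polar Q z x := by
        rw [polar_comm Q x b, show b = z + a by simp [z], polar_add_left, hax, add_zero]
      rw [hxb, hx]
      intro h
      have : (polar Q z x - 2 * Q a) * (polar Q z x + 2 * Q a) = 0 := by linear_combination -h
      rcases mul_eq_zero.1 this with h | h
      · exact h1 (sub_eq_zero.1 h)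
      · exact h1' (eq_neg_of_add_eq_zero_left h)
  by_cases hs : ∃ s : F, s ≠ 0 ∧ s ≠ 1 ∧ s ≠ -1
  · obtain ⟨s, hs0, hs1, hs2⟩ := hs
    set β := s * (2 * Q a)
    have hβ : β ≠ 0 := mul_ne_zero hs0 (mul_ne_zero h2 ha)
    have hzx : polar Q z (β • y' + (Q a / β) • z) = β := by
      rw [polar_add_right, polar_smul_right, polar_smul_right, hzy', hzz, smul_zero, add_zero,
        smul_eq_mul, mul_one]
    refine ⟨β • y' + (Q a / β) • z, ?_, ?_, ?_, ?_⟩
    · rw [qf_add, QuadraticMap.map_smul, QuadraticMap.map_smul, hy', hz, polar_smul_left,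
        polar_smul_right, polar_comm Q y' z, hzy']
      simp only [smul_eq_mul, mul_zero, zero_add, mul_one]
      field_simp
    · rw [polar_add_right, polar_smul_right, polar_smul_right, hay', haz, smul_zero, smul_zero, add_zero]
    · rw [hzx]; intro h
      exact hs1 (mul_right_cancel₀ (mul_ne_zero h2 ha) (by rw [one_mul]; exact h))
    · rw [hzx]; intro h
      exact hs2 (mul_right_cancel₀ (mul_ne_zero h2 ha) (by rw [neg_one_mul]; exact h))
  · have h4 : finrank F V ≠ 4 := hex.resolve_left hs
    set T := perpSub Q (Submodule.span F (Set.range ![a, z, y']))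
    have hTmem : ∀ t, polar Q a t = 0 → polar Q z t = 0 → polar Q y' t = 0 → t ∈ T := by
      intro t h1 h3 h5 n hn
      induction hn using Submodule.span_induction with
      | mem x hx => obtain ⟨i, rfl⟩ := hx; fin_cases i <;> assumption
      | zero => simp
      | add x y _ _ hx hy =>
        show polar Q (x + y) t = 0
        rw [polar_add_left, show polar Q x t = 0 from hx, show polar Q y t = 0 from hy, add_zero]
      | smul c x _ hx =>
        show polar Q (c • x) t = 0
        rw [polar_smul_left, show polar Q x t = 0 from hx, smul_zero]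
    have hT : ∀ t ∈ T, polar Q a t = 0 ∧ polar Q z t = 0 ∧ polar Q y' t = 0 := fun t ht =>
      ⟨ht a (Submodule.subset_span ⟨0, rfl⟩), ht z (Submodule.subset_span ⟨1, rfl⟩),
        ht y' (Submodule.subset_span ⟨2, rfl⟩)⟩
    have hy'y' : polar Q y' y' = 0 := by rw [polar_self_two, hy', mul_zero]
    have hBT : BNondeg (Q.comp T.subtype) := by
      intro t ht
      obtain ⟨h1, h3, h5⟩ := hT _ t.2
      refine Subtype.ext (hB _ fun v => ?_)
      set v' := v - (polar Q a v / (2 * Q a)) • a - polar Q y' v • z - polar Q z v • y' with hv'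
      have hv'T : v' ∈ T := by
        refine hTmem _ ?_ ?_ ?_
        · simp only [v', polar_sub_right, polar_smul_right, polar_self_two, haz, hay', smul_eq_mul]
          field_simp; ring
        · simp only [v', polar_sub_right, polar_smul_right, polar_comm Q z a, haz, hzz, hzy', smul_eq_mul]
          ring
        · simp only [v', polar_sub_right, polar_smul_right, polar_comm Q y' a, hay', hy'y', polar_comm Q y' z, hzy', smul_eq_mul]
          ring
      have := ht ⟨v', hv'T⟩
      have e : polar (Q.comp T.subtype) t ⟨v', hv'T⟩ = polar Q t.1 v' := rfl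
      rw [e] at this
      simp only [v', polar_sub_right, polar_smul_right, polar_comm Q t.1 a, polar_comm Q t.1 z,
        polar_comm Q t.1 y', h1, h3, h5, smul_zero, sub_zero] at this
      exact this
    have hdim : 2 ≤ finrank F T := by
      have hli : LinearIndependent F ![a, z, y'] := by
        rw [Fintype.linearIndependent_iff]
        intro g hg
        have h1 := congrArg (fun x => polar Q a x) hg
        have h3 := congrArg (fun x => polar Q z x) hg
        have h5 := congrArg (fun x => polar Q y' x) hg
        simp only [Fin.sum_univ_three, Matrix.cons_val_zero, Matrix.cons_val_one, Matrix.cons_val_two,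
          Matrix.head_cons, Matrix.tail_cons, polar_add_right, polar_smul_right, polar_zero_right,
          polar_self_two, polar_comm Q z a, polar_comm Q y' a, polar_comm Q y' z, haz, hay', hzy', hz, hy',
          smul_eq_mul, mul_zero, mul_one, add_zero, zero_add] at h1 h3 h5
        intro i
        fin_cases i
        · exact (mul_eq_zero.1 h1).resolve_right (mul_ne_zero h2 ha)
        · exact h5
        · exact h3
      show 2 ≤ finrank F (perpSub Q _)
      rw [finrank_orthogonal_polar hB, finrank_span_eq_card hli, Fintype.card_fin]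
      have h3n := Submodule.finrank_le (Submodule.span F (Set.range ![a, z, y']))
      rw [finrank_span_eq_card hli, Fintype.card_fin] at h3n
      by_contra hlt
      -- then the dimension is three or four, which is impossible here
      have h3' : finrank F V = 3 := by omega
      exact absurd h3' (fun h => by rw [h] at heven; exact absurd heven (by decide))
    obtain ⟨x, hx⟩ := exists_value (Q := Q.comp T.subtype) hBT h2 hdim (Q a)
    obtain ⟨h1, h3, -⟩ := hT _ x.2
    refine ⟨x.1, hx, h1, ?_, ?_⟩
    · rw [h3]; exact (mul_ne_zero h2 ha).symm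
    · rw [h3]; exact (neg_ne_zero.2 (mul_ne_zero h2 ha)).symm

/-- The reflections of one norm class generate a subgroup of index two. -/
theorem index_classSub (hB : BNondeg Q) (h2 : (2 : F) ≠ 0) (hn : 2 ≤ finrank F V) (heven : Even (finrank F V))
    (hex : (∃ s : F, s ≠ 0 ∧ s ≠ 1 ∧ s ≠ -1) ∨ finrank F V ≠ 4) {c : F} (hc : c ≠ 0) :
    (classSub Q c).index = 2 := by
  classical
  have hR := RQ_eq_top hB (notExceptional_of_two_ne_zero (Q := Q) h2)
  let ε : ℤˣ := if IsSquare c then -1 else 1
  let ψ : OQ Q →* ℤˣ :=
    { toFun := fun g => if IsSquare c then dickson g * levelSign Q g else levelSign Q g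
      map_one' := by simp [dickson_one]
      map_mul' := fun g k => by
        have hd : dickson (g * k) = dickson g * dickson k := map_mul (dicksonHom hB hR) g k
        split_ifs <;> simp [hd, mul_mul_mul_comm] }
  have hψ : ∀ (x : V) (hx : Q x ≠ 0), ψ (reflQ Q x hx) = if (IsSquare (Q x) ↔ IsSquare c) then 1 else -1 := by
    intro x hx
    show (if IsSquare c then dickson (reflQ Q x hx) * levelSign Q (reflQ Q x hx) else levelSign Q (reflQ Q x hx)) = _
    rw [dickson_refl hB, levelSign_refl h2 hx]
    by_cases hc' : IsSquare c <;> by_cases hx' : IsSquare (Q x) <;> simp [hc', hx']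
  have hle : classSub Q c ≤ ψ.ker := by
    refine (Subgroup.closure_le _).2 ?_
    rintro _ ⟨x, hx, t, ht, hxt, rfl⟩
    rw [SetLike.mem_coe, MonoidHom.mem_ker, hψ x hx, if_pos]
    rw [hxt]
    refine ⟨fun ⟨s, hs⟩ => ⟨s / t, by field_simp; linear_combination hs⟩, fun hc' => hc'.mul ⟨t, _root_.sq t⟩⟩
  have hge : ψ.ker ≤ classSub Q c := by
    intro g hg
    rw [MonoidHom.mem_ker] at hg
    have hker : ∀ k, sgnHom hB hR k = 1 → k ∈ classSub Q c := fun k hk =>
      sameSub_le_classSub hB h2 heven hex hc (ker_sgnHom_le h2 hB hn hR hk)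
    obtain ⟨e, he⟩ := exists_value hB h2 hn c
    have he0 : Q e ≠ 0 := by rw [he]; exact hc
    have heK : reflQ Q e he0 ∈ classSub Q c :=
      Subgroup.subset_closure ⟨e, he0, 1, one_ne_zero, by rw [he]; ring, rfl⟩
    have hψe : ψ (reflQ Q e he0) = 1 := MonoidHom.mem_ker.1 (hle heK)
    have hψ' : ∀ k, ψ k = if IsSquare c then dickson k * levelSign Q k else levelSign Q k := fun k => rfl
    have main : ∀ k, ψ k = 1 → dickson k = 1 → k ∈ classSub Q c := fun k hk hd =>
      hker k (Prod.ext hd (by
        rw [hψ', hd, one_mul, ite_self] at hk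
        exact hk))
    rcases Int.units_eq_one_or (dickson g) with hd | hd
    · exact main g hg hd
    · have h := main (reflQ Q e he0 * g) (by rw [map_mul, hψe, hg, one_mul])
        (by rw [dickson_refl_mul hB, hd, neg_neg])
      rwa [(classSub Q c).mul_mem_cancel_left heK] at h
  rw [le_antisymm hle hge, Subgroup.index_ker]
  have hsurj : Function.Surjective ψ := fun y => by
    obtain ⟨a, b, ha, hb, hsa, hsb⟩ := exists_two_classes hB h2 hn
    rcases Int.units_eq_one_or y with rfl | rfl
    · exact ⟨1, map_one _⟩
    · by_cases hc' : IsSquare c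
      · exact ⟨reflQ Q b hb, by rw [hψ b hb, if_neg]; simp [hsb, hc']⟩
      · exact ⟨reflQ Q a ha, by rw [hψ a ha, if_neg]; simp [hsa, hc']⟩
  rw [MonoidHom.range_eq_top.2 hsurj, Subgroup.card_top]
  simp

end Cfsg.Agent.OrthGen
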